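import Mathlib
import Cfsg.Agent.Lib.SL2Borel.OddCounts

/-!
# Unipotent values of the characters of degree `(q ± 1)/2`
-/

set_option autoImplicit false

namespace CfsgLib.SL2Borel

open Matrix CfsgLib.Chars Cfsg
open scoped ComplexConjugate

universe u

variable {F : Type u} [Field F] [Fintype F] [DecidableEq F]

local notation "G2" => Matrix.GeneralLinearGroup (Fin 2) F
local notation "L" => Matrix.SpecialLinearGroup (Fin 2) F
local notation "M2" => Matrix (Fin 2) (Fin 2) F

theorem cg_scalar (t : Fˣ) (g : L) : cg (Matrix.GeneralLinearGroup.scalar (Fin 2) t) g = g := by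
  refine CfsgLib.Linear.Card.toGL_injective ?_
  rw [toGL_cg, mul_inv_eq_iff_eq_mul]
  refine Units.ext ?_
  rw [Units.val_mul, Units.val_mul]
  exact (Matrix.scalar_commute (t : F) (fun r => Commute.all _ r) _).eq

theorem scale_sq (ψ : IrrCharacter L) (t : Fˣ) (c : F) :
    (ψ : L → ℂ) (uu ((t : F) * t * c)) = (ψ : L → ℂ) (uu c) := by
  have h := cg_det ψ (y := dg (t * t)) (y' := Matrix.GeneralLinearGroup.scalar (Fin 2) t) (by
    rw [det_dg]
    refine Units.ext ?_
    simp [Matrix.GeneralLinearGroup.scalar, pow_two]) (uu c)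
  rw [cg_dg_uu, cg_scalar, Units.val_mul] at h
  exact h

/-- The constant value on non-trivial unipotent elements. -/
theorem unip_value (X : IrrCharacter G2) (hq : 3 ≤ Fintype.card F) (c : F) (hc : c ≠ 0) :
    (charDegree (X : G2 → ℂ) = Fintype.card F + 1 → (X : G2 → ℂ) (Matrix.SpecialLinearGroup.toGL (uu c)) = 1) ∧
    (charDegree (X : G2 → ℂ) = Fintype.card F - 1 → (X : G2 → ℂ) (Matrix.SpecialLinearGroup.toGL (uu c)) = -1) := by
  constructor
  · intro hd
    obtain ⟨α, β, hab⟩ := CfsgLib.GL2Borel.of_degree_succ X (by rw [irr_apply_one, hd, Nat.cast_add, Nat.cast_one])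
    rw [hab, principal_res_gen, indFun_eq, uu_coe]
    simp [hc]
  · intro hd
    have hcast : (charDegree (X : G2 → ℂ) : ℂ) = (Fintype.card F : ℂ) - 1 := by
      rw [hd, Nat.cast_sub (by omega), Nat.cast_one]
    have hcusp := CfsgLib.GL2Borel.of_degree_pred X hq (by rw [irr_apply_one, hcast])
    have h := CfsgLib.GL2Borel.cusp_unip X hcusp (Matrix.SpecialLinearGroup.toGL (uu 1)) (by rw [toGL_coe, uu_coe])
    rw [hcast] at h
    have hne : (Fintype.card F : ℂ) - 1 ≠ 0 := by
      rw [sub_ne_zero]; exact_mod_cast (show Fintype.card F ≠ 1 by omega)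
    have e : cg (dg (Units.mk0 c hc)) (uu 1) = uu c := by rw [cg_dg_uu, Units.val_mk0, mul_one]
    rw [← e, toGL_cg, IsCharacter.isClassFunction (isCharacter_irr X) _ (dg (Units.mk0 c hc))]
    refine mul_left_cancel₀ hne ?_
    linear_combination h

/-- The Gauss sum description of the unipotent values. -/
theorem half_unip (hodd : Odd (Fintype.card F)) (hq : 5 ≤ Fintype.card F) (ψ : IrrCharacter L) (e : ℤ)
    (he : (e = 1 ∧ charDegree (ψ : L → ℂ) = (Fintype.card F + 1) / 2) ∨
      (e = -1 ∧ charDegree (ψ : L → ℂ) = (Fintype.card F - 1) / 2)) :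
    ∃ ν : Fˣ, (ψ : L → ℂ) (uu 1) + (ψ : L → ℂ) (uu (ν : F)) = (e : ℂ) ∧
      (2 * (ψ : L → ℂ) (uu 1) - (e : ℂ)) ^ 2 = (-1 : ℂ) ^ ((Fintype.card F - 1) / 2) * (Fintype.card F : ℂ) := by
  classical
  obtain ⟨m, hm⟩ := hodd
  have h2e : 2 * (charDegree (ψ : L → ℂ) : ℤ) = (Fintype.card F : ℤ) + e := by
    rcases he with ⟨rfl, hd⟩ | ⟨rfl, hd⟩ <;> rw [hd, hm] <;> omega
  have hchar : ringChar F ≠ 2 := fun h => by
    have := FiniteField.even_card_iff_char_two.1 h
    omega
  obtain ⟨X, Y, hY12, hd, hY, -, hcases, -⟩ := over_degree ψ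
  have hY2 : Y.card = 2 := by
    rcases hY12 with c | c
    · rw [c] at hd; rcases he with ⟨-, h⟩ | ⟨-, h⟩ <;> rw [h] at hd <;> rcases hcases with f | f | f | f <;> omega
    · exact c
  rw [hY2] at hd
  have hX : ∀ c : F, c ≠ 0 → (X : G2 → ℂ) (Matrix.SpecialLinearGroup.toGL (uu c)) = (e : ℂ) := by
    intro c hc
    rcases he with ⟨rfl, h⟩ | ⟨rfl, h⟩
    · rw [(unip_value X (by omega) c hc).1 (by omega)]; norm_num
    · rw [(unip_value X (by omega) c hc).2 (by omega)]; norm_num
  obtain ⟨y, y', hyy, hYeq⟩ := Finset.card_eq_two.1 hY2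
  set f : F → ℂ := fun c => (ψ : L → ℂ) (uu c) with hf
  have hcg : ∀ (z : G2) (c : F), (ψ : L → ℂ) (cg z (uu c)) = f ((Matrix.GeneralLinearGroup.det z : F) * c) := fun z c => by
    rw [cg_det ψ (y' := dg (Matrix.GeneralLinearGroup.det z)) (by rw [det_dg]) (uu c), cg_dg_uu]
  set a : Fˣ := Matrix.GeneralLinearGroup.det y with ha
  set a' : Fˣ := Matrix.GeneralLinearGroup.det y' with ha'
  have hsum : f (a : F) + f (a' : F) = (e : ℂ) := by
    have h := hY (uu 1)
    rw [hX 1 one_ne_zero, hYeq, Finset.sum_pair hyy, hcg, hcg, ← ha, ← ha', mul_one, mul_one] at h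
    exact h.symm
  obtain ⟨ν₀, hν₀⟩ := FiniteField.exists_nonsquare hchar
  have hν0 : ν₀ ≠ 0 := fun h => hν₀ (h ▸ IsSquare.zero)
  have hsqv : ∀ c : F, c ≠ 0 → IsSquare c → f c = f 1 := by
    rintro c hc ⟨t, rfl⟩
    have ht : t ≠ 0 := fun h => hc (by rw [h, mul_zero])
    have := scale_sq ψ (Units.mk0 t ht) 1
    rwa [mul_one] at this
  have hnsqv : ∀ c : F, c ≠ 0 → ¬ IsSquare c → f c = f ν₀ := by
    intro c hc hn
    have hdiv : IsSquare (c * ν₀⁻¹) := by
      rw [← quadraticChar_one_iff_isSquare (mul_ne_zero hc (inv_ne_zero hν0)), map_mul,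
        quadraticChar_neg_one_iff_not_isSquare.2 hn,
        quadraticChar_neg_one_iff_not_isSquare.2 (fun h => hν₀ (by simpa using h.inv))]
      norm_num
    obtain ⟨t, ht⟩ := hdiv
    have ht0 : t ≠ 0 := fun h => mul_ne_zero hc (inv_ne_zero hν0) (by rw [ht, h, mul_zero])
    have hcc : c = t * t * ν₀ := by rw [← ht, inv_mul_cancel_right₀ hν0]
    have := scale_sq ψ (Units.mk0 t ht0) ν₀
    rwa [Units.val_mk0, ← hcc] at this
  have hxy : f 1 + f ν₀ = (e : ℂ) := by
    have hnot : f (a : F) ≠ f (a' : F) := by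
      intro h
      rw [← h] at hsum
      have hI : IsIntegral ℤ (f (a : F)) := IsCharacter.isIntegral (isCharacter_irr ψ) _
      rw [show f (a : F) = algebraMap ℚ ℂ ((e : ℚ) / 2) by
          rw [map_div₀, map_intCast, map_ofNat, eq_div_iff two_ne_zero, mul_two]; exact hsum,
        isIntegral_algebraMap_iff (algebraMap ℚ ℂ).injective] at hI
      obtain ⟨z, hz⟩ := IsIntegrallyClosed.isIntegral_iff.mp hI
      have h2 : ((2 * z : ℤ) : ℚ) = (e : ℚ) := by
        push_cast
        rw [show ((z : ℤ) : ℚ) = (e : ℚ) / 2 from by simpa using hz]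
        ring
      have : 2 * z = e := by exact_mod_cast h2
      rcases he with ⟨rfl, -⟩ | ⟨rfl, -⟩ <;> omega
    by_cases h1 : IsSquare (a : F) <;> by_cases h2 : IsSquare (a' : F)
    · exact absurd ((hsqv _ a.ne_zero h1).trans (hsqv _ a'.ne_zero h2).symm) hnot
    · rw [hsqv _ a.ne_zero h1, hnsqv _ a'.ne_zero h2] at hsum; exact hsum
    · rw [hnsqv _ a.ne_zero h1, hsqv _ a'.ne_zero h2, add_comm] at hsum; exact hsum
    · exact absurd ((hnsqv _ a.ne_zero h1).trans (hnsqv _ a'.ne_zero h2).symm) hnot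
  refine ⟨Units.mk0 ν₀ hν0, hxy, ?_⟩
  set η : MulChar F ℂ := (quadraticChar F).ringHomComp (Int.castRingHom ℂ) with hη
  obtain ⟨μ, hμ⟩ : ∃ μ : AddChar F ℂ, μ.IsPrimitive :=
    ⟨AddChar.FiniteField.primitiveChar_to_Complex F, AddChar.FiniteField.primitiveChar_to_Complex_isPrimitive F⟩
  set τ := gaussSum η μ with hτ
  have hd2 : 2 * (charDegree (ψ : L → ℂ) : ℂ) = (Fintype.card F : ℂ) + (e : ℂ) := by exact_mod_cast h2e
  have h0 : f 0 = (charDegree (ψ : L → ℂ) : ℂ) := by
    have : (uu 0 : L) = 1 := Subtype.ext (by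
      rw [uu_coe]; ext i j; fin_cases i <;> fin_cases j <;> simp)
    simp only [hf, this]
    exact irr_apply_one ψ
  have hdec : ∀ c : F, f c = (e : ℂ) / 2 + (if c = 0 then (Fintype.card F : ℂ) / 2 else 0) +
      (f 1 - f ν₀) / 2 * η c := by
    intro c
    simp only [hη, MulChar.ringHomComp_apply, Int.coe_castRingHom]
    by_cases hc : c = 0
    · subst hc
      rw [quadraticChar_zero, if_pos rfl, h0]
      push_cast
      linear_combination hd2 / 2
    · rw [if_neg hc]
      by_cases hs : IsSquare c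
      · rw [(quadraticChar_one_iff_isSquare hc).2 hs, hsqv c hc hs]; push_cast; linear_combination hxy / 2
      · rw [quadraticChar_neg_one_iff_not_isSquare.2 hs, hnsqv c hc hs]; push_cast; linear_combination hxy / 2
  -- multiplicities of additive characters
  have hmult : ∀ b : F, b ≠ 0 → ∃ n : ℕ, (Fintype.card F : ℂ) * n =
      (Fintype.card F : ℂ) / 2 + (f 1 - f ν₀) / 2 * gaussSum η (μ.mulShift b) := by
    intro b hb
    let ι : Multiplicative F →* L :=
      { toFun := fun c => uu c.toAdd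
        map_one' := Subtype.ext (by
          rw [uu_coe]; ext i j; fin_cases i <;> fin_cases j <;> simp)
        map_mul' := fun c d => Subtype.ext (by
          rw [Matrix.SpecialLinearGroup.coe_mul, uu_coe, uu_coe, uu_coe]
          ext i j; fin_cases i <;> fin_cases j <;> simp [Matrix.mul_apply, Fin.sum_univ_two, add_comm]) }
    have hφ : IsCharacter (Multiplicative F) (fun c => f c.toAdd) := by
      obtain ⟨n, ρ, hρ⟩ := isCharacter_irr ψ
      exact ⟨n, ρ.comp ι, by funext c; simp only [hf]; rw [← hρ]; rfl⟩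
    let lin : Multiplicative F →* ℂ :=
      { toFun := fun c => μ (-(b * c.toAdd))
        map_one' := by simp
        map_mul' := fun c d => by rw [toAdd_mul, mul_add, neg_add, AddChar.map_add_eq_mul] }
    obtain ⟨n, hn⟩ := exists_mult hφ (⟨fun c => lin c, by
      have h := isIrrCharacter_hom_mul lin.toHomUnits (⟨fun _ => 1, isIrrCharacter_one _⟩ : IrrCharacter (Multiplicative F))
      simpa using h⟩ : IrrCharacter (Multiplicative F))
    refine ⟨n, ?_⟩
    rw [← hn, classInner, Nat.card_eq_fintype_card, Fintype.card_multiplicative, ← mul_assoc,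
      mul_inv_cancel₀ (Nat.cast_ne_zero.2 Fintype.card_ne_zero), one_mul,
      Fintype.sum_equiv Multiplicative.toAdd (fun c => f c.toAdd * conj (lin c)) (fun c => f c * μ (b * c)) (fun c => by
        show _ * conj (μ (-(b * c.toAdd))) = _
        rw [← AddChar.map_neg_eq_conj, neg_neg])]
    have hμb : μ.mulShift b ≠ 1 := hμ hb
    have hs0 : ∑ c : F, μ (b * c) = 0 := by
      have := AddChar.sum_eq_zero_of_ne_one hμb
      simpa [AddChar.mulShift_apply] using this
    have hterm : ∀ c : F, f c * μ (b * c) = (e : ℂ) / 2 * μ (b * c) + (if c = 0 then (Fintype.card F : ℂ) / 2 else 0) +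
        (f 1 - f ν₀) / 2 * (η c * μ (b * c)) := fun c => by
      rw [hdec c]
      split_ifs with hc
      · rw [hc, mul_zero, AddChar.map_zero_eq_one]; ring
      · ring
    rw [Finset.sum_congr rfl (fun c _ => hterm c), Finset.sum_add_distrib, Finset.sum_add_distrib, ← Finset.mul_sum,
      ← Finset.mul_sum, hs0, mul_zero, zero_add, Finset.sum_ite_eq', if_pos (Finset.mem_univ _)]
    rfl
  obtain ⟨n1, hn1⟩ := hmult 1 one_ne_zero
  obtain ⟨n2, hn2⟩ := hmult ν₀ hν0
  have hην : η ν₀ = -1 := by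
    simp only [hη, MulChar.ringHomComp_apply, Int.coe_castRingHom]
    rw [quadraticChar_neg_one_iff_not_isSquare.2 hν₀]; norm_num
  have hshift : gaussSum η (μ.mulShift ν₀) = -τ := by
    have h := gaussSum_mulShift η μ (Units.mk0 ν₀ hν0)
    rw [Units.val_mk0, hην] at h
    rw [hτ]; linear_combination -h
  rw [AddChar.mulShift_one, ← hτ] at hn1
  rw [hshift] at hn2
  have hqne : (Fintype.card F : ℂ) ≠ 0 := Nat.cast_ne_zero.2 Fintype.card_ne_zero
  have h12 : n1 + n2 = 1 := by
    have : (Fintype.card F : ℂ) * ((n1 + n2 : ℕ) : ℂ) = (Fintype.card F : ℂ) * ((1 : ℕ) : ℂ) := by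
      push_cast; linear_combination hn1 + hn2
    exact_mod_cast mul_left_cancel₀ hqne this
  have hsqτ : τ ^ 2 = (-1 : ℂ) ^ ((Fintype.card F - 1) / 2) * (Fintype.card F : ℂ) := by
    have hη2 : η ≠ 1 := fun h => by rw [h, MulChar.one_apply (isUnit_iff_ne_zero.2 hν0)] at hην; norm_num at hην
    rw [hτ, gaussSum_sq hη2 ((quadraticChar_isQuadratic F).comp _) hμ]
    congr 1
    simp only [hη, MulChar.ringHomComp_apply, Int.coe_castRingHom]
    rw [quadraticChar_neg_one hchar, ZMod.χ₄_eq_neg_one_pow (by omega), show (Fintype.card F - 1) / 2 = Fintype.card F / 2 by omega]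
    push_cast
    rfl
  have hD : (f 1 - f ν₀) * τ = (Fintype.card F : ℂ) ∨ (f 1 - f ν₀) * τ = -(Fintype.card F : ℂ) := by
    rcases Nat.eq_zero_or_pos n1 with h | h
    · right; rw [h, Nat.cast_zero] at hn1; linear_combination -2 * hn1
    · left; rw [show n1 = 1 by omega, Nat.cast_one] at hn1; linear_combination -2 * hn1
  have hD2 : (f 1 - f ν₀) ^ 2 * τ ^ 2 = (Fintype.card F : ℂ) ^ 2 := by
    rcases hD with h | h <;> rw [← mul_pow, h]
    rw [neg_sq]
  rw [hsqτ] at hD2
  set δ := (-1 : ℂ) ^ ((Fintype.card F - 1) / 2) with hδ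
  have hδ2 : δ * δ = 1 := by rw [hδ, ← mul_pow, neg_mul_neg, one_mul, one_pow]
  have hkey : (f 1 - f ν₀) ^ 2 = δ * (Fintype.card F : ℂ) := by
    refine mul_right_cancel₀ hqne ?_
    linear_combination δ * hD2 - (f 1 - f ν₀) ^ 2 * (Fintype.card F : ℂ) * hδ2
  rw [← hkey]
  have : 2 * (ψ : L → ℂ) (uu 1) - (e : ℂ) = f 1 - f ν₀ := by
    show 2 * f 1 - (e : ℂ) = _
    linear_combination hxy
  rw [this]

/-- The two characters of half degree add up to a sign. -/
theorem half_pair (hodd : Odd (Fintype.card F)) (hq : 5 ≤ Fintype.card F) (ψ φ : IrrCharacter L) (hne : ψ ≠ φ) (e : ℤ)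
    (he : (e = 1 ∧ charDegree (ψ : L → ℂ) = (Fintype.card F + 1) / 2) ∨
      (e = -1 ∧ charDegree (ψ : L → ℂ) = (Fintype.card F - 1) / 2))
    (hφ : charDegree (φ : L → ℂ) = charDegree (ψ : L → ℂ)) :
    (ψ : L → ℂ) (uu 1) + (φ : L → ℂ) (uu 1) = (e : ℂ) := by
  classical
  haveI : Finite (IrrCharacter L) := finite_irr L
  obtain ⟨ν, hxy, hsq⟩ := half_unip hodd hq ψ e he
  let ψ' : IrrCharacter L := ⟨fun g => (ψ : L → ℂ) (cg (dg ν) g),
    IsIrrCharacter.comp ψ.2 (cg (dg ν)).toMonoidHom (cg (dg ν)).surjective⟩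
  have hval : (ψ' : L → ℂ) (uu 1) = (ψ : L → ℂ) (uu (ν : F)) := by
    show (ψ : L → ℂ) (cg (dg ν) (uu 1)) = _
    rw [cg_dg_uu, mul_one]
  have hd' : charDegree (ψ' : L → ℂ) = charDegree (ψ : L → ℂ) := by simp [charDegree, ψ']
  have hne' : ψ' ≠ ψ := fun h => by
    rw [h] at hval
    rw [← hval] at hxy
    rw [show 2 * (ψ : L → ℂ) (uu 1) - (e : ℂ) = 0 by linear_combination hxy, zero_pow two_ne_zero] at hsq
    exact mul_ne_zero (pow_ne_zero _ (by norm_num)) (Nat.cast_ne_zero.2 Fintype.card_ne_zero) hsq.symm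
  have hc : Nat.card {χ : IrrCharacter L // charDegree (χ : L → ℂ) = charDegree (ψ : L → ℂ)} = 2 := by
    rcases he with ⟨-, h⟩ | ⟨-, h⟩ <;> rw [h]
    · exact deg_half hodd hq
    · exact (odd_counts hodd hq).2
  rw [Nat.card_eq_fintype_card, Fintype.card_subtype] at hc
  have heq : φ = ψ' := by
    by_contra h
    have h3 : ({ψ, φ, ψ'} : Finset (IrrCharacter L)).card = 3 := Finset.card_eq_three.2 ⟨ψ, φ, ψ', hne, hne'.symm, h, rfl⟩
    have := Finset.card_le_card (s := ({ψ, φ, ψ'} : Finset (IrrCharacter L)))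
      (t := Finset.univ.filter fun χ => charDegree (χ : L → ℂ) = charDegree (ψ : L → ℂ)) (fun x hx => by
        simp only [Finset.mem_insert, Finset.mem_singleton] at hx
        rcases hx with rfl | rfl | rfl <;> simp [hφ, hd'])
    omega
  rw [heq, hval, hxy]

end CfsgLib.SL2Borel
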