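import Mathlib
import Cfsg.Agent.Lib.SL2Borel.Induced
import Cfsg.Agent.Lib.SL2.ClassNumber

/-!
# Class function sums over `SL₂` in odd characteristic
-/

set_option autoImplicit false

namespace CfsgLib.SL2Borel

open Matrix Cfsg CfsgLib.SL2Torus CfsgLib.Dickson

universe u

variable {F : Type u} [Field F] [Fintype F] [DecidableEq F]

local notation "L" => Matrix.SpecialLinearGroup (Fin 2) F
local notation "M2" => Matrix (Fin 2) (Fin 2) F

/-- The facts used about a cyclic subgroup of order `q + 1`. -/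
structure NonSplitTorus (C : Subgroup (Matrix.SpecialLinearGroup (Fin 2) F)) : Prop where
  special : ∀ c ∈ C, tr c ^ 2 = 4 → c = 1 ∨ c = -1
  elliptic : ∀ c ∈ C, tr c ^ 2 ≠ 4 → ¬ Split (tr c) ∧ cent c = C
  surj : ∀ x : L, tr x ^ 2 ≠ 4 → ¬ Split (tr x) → ∃ c ∈ C, tr c = tr x
  negOne_mem : (-1 : L) ∈ C

theorem nonSplitTorus (hodd : Odd (Fintype.card F)) (C : Subgroup L) (hC : IsCyclic C)
    (hcard : Nat.card C = Fintype.card F + 1) : NonSplitTorus C := by
  classical
  have hchar : ringChar F ≠ 2 := fun h => by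
    have := FiniteField.even_card_iff_char_two.1 h
    obtain ⟨k, hk⟩ := hodd
    omega
  have hgcd : Nat.gcd 2 (Fintype.card F - 1) = 2 :=
    Nat.gcd_eq_left (by obtain ⟨k, hk⟩ := hodd; exact ⟨k, by omega⟩)
  have hq : 2 ≤ Fintype.card F := Fintype.one_lt_card
  obtain ⟨c₀, hc₀⟩ := hC.exists_generator
  have hcomm : ∀ a ∈ C, ∀ b ∈ C, a * b = b * a := fun a ha b hb => by
    letI := hC.commGroup
    exact congrArg Subtype.val (mul_comm (⟨a, ha⟩ : C) ⟨b, hb⟩)
  have hle : ∀ c ∈ C, C ≤ cent c := fun c hc y hy => mem_cent.2 (hcomm c hc y hy)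
  have hell : ∀ c ∈ C, tr c ^ 2 ≠ 4 → ¬ Split (tr c) ∧ cent c = C := by
    intro c hc hct
    have h1 := Subgroup.card_le_of_le (hle c hc)
    rw [hcard] at h1
    have hns : ¬ Split (tr c) := fun hs => by rw [card_cent_split hct hs] at h1; omega
    refine ⟨hns, (Subgroup.eq_of_le_of_card_ge (hle c hc) ?_).symm⟩
    rw [card_cent_elliptic hct hns, hcard]
  -- the generator is semisimple
  have h0 : tr (c₀ : L) ^ 2 ≠ 4 := by
    intro h
    obtain ⟨e, he, hte⟩ := exists_unip_cases h
    by_cases hs : ∃ c : F, ((c₀ : L) : M2) = c • (1 : M2)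
    · have h2 : (c₀ : L) * (c₀ : L) = 1 := by
        rcases scalar_cases hs with e' | e' <;> rw [e'] <;> simp
      have h2' : c₀ * c₀ = 1 := Subtype.ext h2
      have := orderOf_eq_card_of_forall_mem_zpowers hc₀
      have h3 := Nat.le_of_dvd two_pos (orderOf_dvd_of_pow_eq_one (show c₀ ^ 2 = 1 by rw [pow_two, h2']))
      omega
    · have hdvd := Subgroup.card_dvd_of_le (hle c₀ c₀.2)
      rw [hcard, card_cent_unip hs h, hgcd] at hdvd
      have hco : Nat.Coprime (Fintype.card F + 1) (Fintype.card F) := (Nat.coprime_self_add_left).2 (Nat.coprime_one_left _)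
      have h4 := Nat.le_of_dvd two_pos (hco.dvd_of_dvd_mul_left hdvd)
      omega
  obtain ⟨hns0, hcent0⟩ := hell c₀ c₀.2 h0
  refine ⟨fun c hc hct => ?_, hell, fun x hx hxs => ?_, hcent0 ▸ neg_one_mem_cent _⟩
  · by_contra hcon
    push Not at hcon
    have hs := ne_scalar' hcon.1 hcon.2
    have := cent_eq (ne_scalar h0) (hcent0.symm ▸ hc) hs
    have h1 := card_cent_unip hs hct
    rw [this, hcent0, hcard, hgcd] at h1
    omega
  · obtain ⟨h, hh⟩ := cent_conj hx h0 (by rw [card_cent_elliptic hx hxs, card_cent_elliptic h0 hns0])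
    refine ⟨h * x * h⁻¹, ?_, tr_conj x h⟩
    rw [← hcent0, ← hh]
    exact ⟨x, self_mem_cent x, rfl⟩

theorem card_trace_unip_ne {e : F} (he : e * e = 1) (s : L) (hs : tr s = 2 * e) [Fintype L] :
    ((Finset.univ.filter fun x : L => tr x = 2 * e).erase s).card = Fintype.card F ^ 2 - 1 := by
  classical
  have h := card_trace_unip he
  rw [Nat.card_eq_fintype_card, Fintype.card_subtype] at h
  rw [Finset.card_erase_of_mem (a := s) (Finset.mem_filter.2 ⟨Finset.mem_univ s, hs⟩), h]

set_option maxHeartbeats 1600000 in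
/-- Sums of class functions over `SL₂`, in terms of a non-split torus. -/
theorem sum_decomp (hodd : Odd (Fintype.card F)) {C : Subgroup L} (hT : NonSplitTorus C) [Fintype L] [Fintype C]
    (f : L → ℂ) (hf : IsClassFunction L f) (U : F → ℂ)
    (hU : ∀ (x : L) (e : F), e * e = 1 → tr x = 2 * e → x ≠ 1 → x ≠ -1 → f x = U e)
    (hS : ∀ x : L, tr x ^ 2 ≠ 4 → Split (tr x) → f x = 0) :
    2 * ∑ x : L, f x = 2 * (f 1 + f (-1) + ((Fintype.card F : ℂ) ^ 2 - 1) * (U 1 + U (-1))) +
      (Fintype.card F : ℂ) * ((Fintype.card F : ℂ) - 1) *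
        ∑ c ∈ Finset.univ.filter (fun c : C => tr (c : L) ^ 2 ≠ 4), f (c : L) := by
  classical
  set q := Fintype.card F with hq0
  have hq2 : 2 ≤ q := Fintype.one_lt_card
  have h2 : (2 : F) ≠ 0 := Ring.two_ne_zero (fun h => by
    have := FiniteField.even_card_iff_char_two.1 h
    obtain ⟨k, hk⟩ := hodd
    omega)
  set C' := Finset.univ.filter (fun c : C => tr (c : L) ^ 2 ≠ 4) with hC'
  have htne : (2 : F) * 1 ≠ 2 * (-1) := fun h => h2 (mul_self_eq_zero.1 (by linear_combination h))
  set T := Finset.univ.filter (fun t : F => t ^ 2 ≠ 4) with hTdef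
  have hbad : Finset.univ.filter (fun t : F => ¬ t ^ 2 ≠ 4) = {2 * 1, 2 * (-1)} := by
    ext t
    simp only [Finset.mem_filter, Finset.mem_univ, true_and, not_not, Finset.mem_insert, Finset.mem_singleton]
    refine ⟨fun h => ?_, ?_⟩
    · rcases mul_eq_zero.1 (show (t - 2) * (t + 2) = 0 by linear_combination h) with e | e
      · exact Or.inl (by linear_combination e)
      · exact Or.inr (by linear_combination e)
    · rintro (rfl | rfl) <;> ring
  have hunip : ∀ e : F, e * e = 1 → ∀ s : L, (s = 1 ∨ s = -1) → tr s = 2 * e →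
      ∑ x ∈ Finset.univ.filter (fun x : L => tr x = 2 * e), f x = f s + ((q : ℂ) ^ 2 - 1) * U e := by
    intro e he s hs hts
    rw [← Finset.add_sum_erase _ f (Finset.mem_filter.2 ⟨Finset.mem_univ s, hts⟩),
      Finset.sum_congr rfl (g := fun _ => U e) ?_, Finset.sum_const, card_trace_unip_ne he s hts, nsmul_eq_mul,
      Nat.cast_sub (Nat.one_le_pow _ _ (by omega)), Nat.cast_pow, Nat.cast_one]
    intro x hx
    obtain ⟨hxs, hx⟩ := Finset.mem_erase.1 hx
    have hte := (Finset.mem_filter.1 hx).2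
    refine hU x e he hte (fun h => ?_) (fun h => ?_)
    · subst h
      rcases hs with rfl | rfl
      · exact hxs rfl
      · refine h2 (mul_self_eq_zero.1 ?_)
        rw [tr_neg] at hts
        simp [tr] at hte hts
        linear_combination hte - hts
    · subst h
      rcases hs with rfl | rfl
      · refine h2 (mul_self_eq_zero.1 ?_)
        rw [tr_neg] at hte
        simp [tr] at hte hts
        linear_combination hts - hte
      · exact hxs rfl
  have hmain : ∀ t ∈ T, 2 * ∑ x ∈ Finset.univ.filter (fun x : L => tr x = t), f x =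
      (q : ℂ) * ((q : ℂ) - 1) * ∑ c ∈ C'.filter (fun c : C => tr (c : L) = t), f (c : L) := by
    intro t ht
    have ht' : t ^ 2 ≠ 4 := (Finset.mem_filter.1 ht).2
    by_cases hs : Split t
    · rw [Finset.sum_eq_zero fun x hx => hS x (by rw [(Finset.mem_filter.1 hx).2]; exact ht') (by rw [(Finset.mem_filter.1 hx).2]; exact hs),
        Finset.sum_eq_zero (s := C'.filter fun c : C => tr (c : L) = t), mul_zero, mul_zero]
      intro c hc
      obtain ⟨hc', hct⟩ := Finset.mem_filter.1 hc
      exact absurd (hct ▸ hs) (hT.elliptic c c.2 (Finset.mem_filter.1 hc').2).1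
    · obtain ⟨a, haC, hat⟩ := hT.surj (comp t) (by rw [tr_comp]; exact ht') (by rw [tr_comp]; exact hs)
      rw [tr_comp] at hat
      have ha4 : tr a ^ 2 ≠ 4 := hat.symm ▸ ht'
      have hconst : ∀ x : L, tr x = t → f x = f a := fun x hx => by
        obtain ⟨c, hc⟩ := isConj_iff.1 (isConj_of_tr ha4 (hat.trans hx.symm))
        rw [← hc, hf a c]
      rw [Finset.sum_congr rfl (fun x hx => hconst x (Finset.mem_filter.1 hx).2), Finset.sum_const,
        Finset.sum_congr (s₁ := C'.filter fun c : C => tr (c : L) = t) rfl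
          (fun c hc => hconst (c : L) (Finset.mem_filter.1 hc).2), Finset.sum_const]
      have hne : (⟨a, haC⟩ : C) ≠ (⟨a, haC⟩ : C)⁻¹ := fun h => inv_ne_self ha4 (congrArg Subtype.val h).symm
      have hfib : C'.filter (fun c : C => tr (c : L) = t) = {(⟨a, haC⟩ : C), (⟨a, haC⟩ : C)⁻¹} := by
        ext c
        simp only [C', Finset.mem_filter, Finset.mem_univ, true_and, Finset.mem_insert, Finset.mem_singleton]
        refine ⟨fun h => ?_, ?_⟩
        · have := eq_or_inv_of_tr ha4 (a := (c : L)) (by rw [(hT.elliptic a haC ha4).2]; exact c.2) (h.2.trans hat.symm)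
          exact this.imp (fun e => Subtype.ext e) (fun e => Subtype.ext e)
        · rintro (rfl | rfl)
          · exact ⟨ha4, hat⟩
          · rw [Subgroup.coe_inv, tr_inv]; exact ⟨ha4, hat⟩
      rw [hfib, Finset.card_pair hne]
      have hcard : ((Finset.univ.filter fun x : L => tr x = t).card : ℂ) = (q : ℂ) * ((q : ℂ) - 1) := by
        have h := card_trace_semisimple ht'
        rw [card_cent_elliptic (by rw [tr_comp]; exact ht') (by rw [tr_comp]; exact hs), Nat.card_eq_fintype_card,
          Fintype.card_subtype, card_L_eq, ← hq0] at h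
        have h' : (((Finset.univ.filter fun x : L => tr x = t).card * (q + 1) : ℕ) : ℂ) = ((q * (q ^ 2 - 1) : ℕ) : ℂ) := by
          rw [h]
        rw [Nat.cast_mul, Nat.cast_mul, Nat.cast_sub (Nat.one_le_pow _ _ (by omega)), Nat.cast_pow] at h'
        push_cast at h'
        have hne' : (q : ℂ) + 1 ≠ 0 := by exact_mod_cast Nat.succ_ne_zero q
        refine mul_right_cancel₀ hne' ?_
        linear_combination h'
      rw [nsmul_eq_mul, nsmul_eq_mul, hcard]
      push_cast
      ring
  have hsplit : ∀ g : F → ℂ, ∑ t : F, g t = (g (2 * 1) + g (2 * (-1))) + ∑ t ∈ T, g t := fun g => by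
    rw [← Finset.sum_filter_add_sum_filter_not Finset.univ (fun t : F => t ^ 2 ≠ 4), hbad, Finset.sum_pair htne]
    exact add_comm _ _
  have hL : ∑ x : L, f x = f 1 + f (-1) + ((q : ℂ) ^ 2 - 1) * (U 1 + U (-1)) +
      ∑ t ∈ T, ∑ x ∈ Finset.univ.filter (fun x : L => tr x = t), f x := by
    rw [← Finset.sum_fiberwise Finset.univ tr f, hsplit,
      hunip 1 (one_mul 1) 1 (Or.inl rfl) (by simp [tr]),
      hunip (-1) (by ring) (-1) (Or.inr rfl) (by rw [tr_neg]; simp [tr])]
    ring
  have hR : ∑ c ∈ C', f (c : L) = ∑ t ∈ T, ∑ c ∈ C'.filter (fun c : C => tr (c : L) = t), f (c : L) :=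
    (Finset.sum_fiberwise_of_maps_to (s := C') (t := T) (g := fun c : C => tr (c : L))
      (fun c hc => Finset.mem_filter.2 ⟨Finset.mem_univ (tr (c : L)), (Finset.mem_filter.1 hc).2⟩) _).symm
  rw [hL, hR, mul_add, Finset.mul_sum, Finset.mul_sum]
  congr 1
  exact Finset.sum_congr rfl hmain

end CfsgLib.SL2Borel
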