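import Mathlib
import Cfsg.Agent.Lib.SL2Borel.TorusSum
import Cfsg.Agent.Lib.SL2Borel.OddPlus
import Cfsg.Agent.Lib.SL2Borel.HalfUnip
import Cfsg.Agent.Lib.CharAbelian

/-!
# Values of the cuspidal characters on a non-split torus
-/

set_option autoImplicit false

namespace CfsgLib.SL2Borel

open Matrix CfsgLib.Chars Cfsg CfsgLib.SL2Torus CfsgLib.Dickson
open scoped ComplexConjugate

universe u

variable {F : Type u} [Field F] [Fintype F] [DecidableEq F]

local notation "G2" => Matrix.GeneralLinearGroup (Fin 2) F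
local notation "L" => Matrix.SpecialLinearGroup (Fin 2) F
local notation "M2" => Matrix (Fin 2) (Fin 2) F

omit [Fintype F] [DecidableEq F] in
theorem negOne_eq : (negOne : L) = -1 := Subtype.ext (by
  show (-1 : M2) = ((-1 : L) : M2)
  simp)

omit [Fintype F] [DecidableEq F] in
theorem no_eigen_of_not_split {g : L} (hs : ¬ Split (tr g)) (c : F) (v : Fin 2 → F) (hv : v ≠ 0) :
    (g : M2).mulVec v ≠ c • v := by
  intro h
  apply hs
  have hdet : ((g : M2) - c • (1 : M2)).det = 0 :=
    Matrix.exists_mulVec_eq_zero_iff.1 ⟨v, hv, by rw [Matrix.sub_mulVec, Matrix.smul_mulVec, Matrix.one_mulVec, h, sub_self]⟩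
  refine ⟨c, ?_⟩
  have hd := det_eq g
  rw [Matrix.det_fin_two] at hdet
  simp at hdet
  rw [tr, Matrix.trace_fin_two]
  linear_combination hdet - hd

/-- A sign with the defining property of the central character. -/
theorem exists_sign (ψ : IrrCharacter L) :
    ∃ ω : ℤ, (ω = 1 ∨ ω = -1) ∧ (ψ : L → ℂ) (-1) = (ω : ℂ) * (charDegree (ψ : L → ℂ) : ℂ) ∧
      ∀ g : L, (ψ : L → ℂ) (-1 * g) = (ω : ℂ) * (ψ : L → ℂ) g := by
  have hd : (charDegree (ψ : L → ℂ) : ℂ) ≠ 0 := Nat.cast_ne_zero.2 (charDegree_pos ψ).ne'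
  have hc : (-1 : L) ∈ Subgroup.center L := negOne_eq (F := F) ▸ negOne_mem
  have key : ∀ ω : ℤ, (ψ : L → ℂ) (-1) = (ω : ℂ) * (charDegree (ψ : L → ℂ) : ℂ) →
      ∀ g : L, (ψ : L → ℂ) (-1 * g) = (ω : ℂ) * (ψ : L → ℂ) g := fun ω h g => by
    rw [CfsgLib.Chars.TIAbelian.central_value ψ hc g, h, irr_apply_one, mul_div_cancel_right₀ _ hd]
  rcases at_negOne ψ with h | h <;> rw [negOne_eq] at h
  · exact ⟨1, Or.inl rfl, by simp [h], key 1 (by simp [h])⟩
  · exact ⟨-1, Or.inr rfl, by simp [h], key (-1) (by simp [h])⟩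

/-- Values of the restriction of a cuspidal character outside the non-split tori. -/
theorem cusp_values (hodd : Odd (Fintype.card F)) (hq : 3 ≤ Fintype.card F) (ψ : IrrCharacter L) (X : IrrCharacter G2)
    (Y : Finset G2) (hX : charDegree (X : G2 → ℂ) = Fintype.card F - 1)
    (hY : ∀ g : L, (X : G2 → ℂ) (Matrix.SpecialLinearGroup.toGL g) = ∑ y ∈ Y, (ψ : L → ℂ) (cg y g))
    (ω : ℤ) (hω : ∀ g : L, (ψ : L → ℂ) (-1 * g) = (ω : ℂ) * (ψ : L → ℂ) g) :
    (X : G2 → ℂ) (Matrix.SpecialLinearGroup.toGL (-1 : L)) = (ω : ℂ) * ((Fintype.card F : ℂ) - 1) ∧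
    (∀ (x : L) (e : F), e * e = 1 → tr x = 2 * e → x ≠ 1 → x ≠ -1 →
      (X : G2 → ℂ) (Matrix.SpecialLinearGroup.toGL x) = if e = 1 then -1 else -(ω : ℂ)) ∧
    (∀ x : L, tr x ^ 2 ≠ 4 → Split (tr x) → (X : G2 → ℂ) (Matrix.SpecialLinearGroup.toGL x) = 0) ∧
    ∀ x : L, tr x ^ 2 ≠ 4 → ¬ Split (tr x) →
      (X : G2 → ℂ) (Matrix.SpecialLinearGroup.toGL x) = (Y.card : ℂ) * (ψ : L → ℂ) x := by
  classical
  have hcl : ∀ x P : L, (X : G2 → ℂ) (Matrix.SpecialLinearGroup.toGL (P * x * P⁻¹)) =
      (X : G2 → ℂ) (Matrix.SpecialLinearGroup.toGL x) := fun x P => by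
    rw [map_mul, map_mul, map_inv]
    exact IsCharacter.isClassFunction (isCharacter_irr X) _ _
  have hz : ∀ g : L, (X : G2 → ℂ) (Matrix.SpecialLinearGroup.toGL (-1 * g)) =
      (ω : ℂ) * (X : G2 → ℂ) (Matrix.SpecialLinearGroup.toGL g) := fun g => by
    rw [hY, hY, Finset.mul_sum]
    refine Finset.sum_congr rfl fun y _ => ?_
    have hy : cg y (-1 : L) = -1 := CfsgLib.Linear.Card.toGL_injective (by
      rw [toGL_cg]
      refine mul_inv_eq_iff_eq_mul.2 (Units.ext ?_)
      rw [Units.val_mul, Units.val_mul, toGL_coe]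
      simp)
    rw [map_mul, hy, hω]
  refine ⟨?_, fun x e he ht h1 h2 => ?_, fun x hx hs => ?_, fun x hx hs => ?_⟩
  · have := hz 1
    rw [mul_one, map_one, irr_apply_one, hX, Nat.cast_sub (by omega), Nat.cast_one] at this
    exact this
  · obtain ⟨P, b, hb, hP⟩ := exists_conj_u (ne_scalar' h1 h2) he ht
    obtain ⟨s, hs, hse⟩ := coe_eps he (SL2Torus.u b)
    have e1 : P⁻¹ * x * P = s * SL2Torus.u b := Subtype.ext (hP.trans hse)
    have hu : (SL2Torus.u b : L) = uu b := rfl
    have hval := hcl x P⁻¹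
    rw [inv_inv, e1, hu] at hval
    rw [← hval]
    have hv := (unip_value X hq b hb).2 hX
    have hsgn : (s = 1 ∧ e = 1) ∨ (s = -1 ∧ e ≠ 1) := by
      have htr := congrArg Matrix.trace hse
      rw [Matrix.trace_smul] at htr
      have h2' : (2 : F) ≠ 0 := Ring.two_ne_zero (fun h => by
        have := FiniteField.even_card_iff_char_two.1 h
        obtain ⟨k, hk⟩ := hodd
        omega)
      rcases mul_self_eq_one_iff.1 he with rfl | rfl
      · refine Or.inl ⟨?_, rfl⟩
        rcases hs with rfl | rfl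
        · rfl
        · exfalso
          rw [neg_one_mul, Matrix.SpecialLinearGroup.coe_neg, Matrix.trace_neg] at htr
          simp [SL2Torus.u, Matrix.trace_fin_two] at htr
          exact h2' (mul_self_eq_zero.1 (by linear_combination htr))
      · refine Or.inr ⟨?_, fun h => h2' (by linear_combination -h)⟩
        rcases hs with rfl | rfl
        · exfalso
          rw [one_mul] at htr
          simp [SL2Torus.u, Matrix.trace_fin_two] at htr
          exact h2' (mul_self_eq_zero.1 (by linear_combination -htr))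
        · rfl
    rcases hsgn with ⟨rfl, he1⟩ | ⟨rfl, he1⟩
    · rw [one_mul, if_pos he1, hv]
    · rw [hz, if_neg he1, hv, mul_neg_one]
  · obtain ⟨l, hl⟩ := hs
    have hl0 : l ≠ 0 := fun h => by rw [h] at hl; simp at hl
    let D : L := ⟨!![l, 0; 0, l⁻¹], by simp [Matrix.det_fin_two, hl0]⟩
    have htD : tr D = tr x := by
      show (!![l, 0; 0, l⁻¹] : M2).trace = _
      rw [Matrix.trace_fin_two_of]
      field_simp
      linear_combination hl
    obtain ⟨P, hP⟩ := isConj_iff.1 (isConj_of_tr hx htD.symm)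
    rw [← hcl x P, hP]
    have hcast : (charDegree (X : G2 → ℂ) : ℂ) = (Fintype.card F : ℂ) - 1 := by
      rw [hX, Nat.cast_sub (by omega), Nat.cast_one]
    refine CfsgLib.GL2Borel.cusp_split X (CfsgLib.GL2Borel.of_degree_pred X hq (by rw [irr_apply_one, hcast]))
      (Matrix.SpecialLinearGroup.toGL D) rfl rfl ?_
    show l ≠ l⁻¹
    intro h
    apply hx
    rw [← htD]
    show (!![l, 0; 0, l⁻¹] : M2).trace ^ 2 = 4
    rw [Matrix.trace_fin_two_of, ← h]
    have hll : l * l = 1 := by
      nth_rewrite 2 [h]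
      exact mul_inv_cancel₀ hl0
    linear_combination 4 * hll
  · exact val_of_commutant ψ X Y hY x (exists_commutant_elliptic x (no_eigen_of_not_split hs))

open Classical in
set_option maxHeartbeats 1600000 in
/-- The characters under a cuspidal character, on a non-split torus. -/
theorem cusp_torus (hodd : Odd (Fintype.card F)) (hq : 3 ≤ Fintype.card F) (ψ : IrrCharacter L) (X : IrrCharacter G2)
    (Y : Finset G2) (hY12 : Y.card = 1 ∨ Y.card = 2) (hX : charDegree (X : G2 → ℂ) = Fintype.card F - 1)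
    (hd : charDegree (X : G2 → ℂ) = Y.card * charDegree (ψ : L → ℂ))
    (hn : classInner (fun g : L => (X : G2 → ℂ) (Matrix.SpecialLinearGroup.toGL g))
      (fun g : L => (X : G2 → ℂ) (Matrix.SpecialLinearGroup.toGL g)) = (Y.card : ℂ))
    (hY : ∀ g : L, (X : G2 → ℂ) (Matrix.SpecialLinearGroup.toGL g) = ∑ y ∈ Y, (ψ : L → ℂ) (cg y g))
    (C : Subgroup L) (hC : IsCyclic C) (hcard : Nat.card C = Fintype.card F + 1) :
    ∃ θ : C →* ℂˣ, (∃ c : C, θ c ≠ 1) ∧
      (∀ c : C, tr (c : L) ^ 2 ≠ 4 → (Y.card : ℂ) * (ψ : L → ℂ) c = -((θ c).val + (θ c)⁻¹.val)) ∧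
      (∀ c : C, (c : L) = -1 → ∀ g : L, (ψ : L → ℂ) ((c : L) * g) = (θ c).val * (ψ : L → ℂ) g) ∧
      ((Y.card = 1 ∧ ∃ c : C, θ c ^ 2 ≠ 1) ∨ (Y.card = 2 ∧ ∀ c : C, θ c ^ 2 = 1)) := by
  classical
  haveI : Fintype C := Fintype.ofFinite _
  have hT := nonSplitTorus hodd C hC hcard
  obtain ⟨ω, hω1, hωd, hω⟩ := exists_sign ψ
  obtain ⟨hz, hU, hS, hE⟩ := cusp_values hodd hq ψ X Y hX hY ω hω
  set q := Fintype.card F with hq0
  set k : ℂ := (Y.card : ℂ) with hk
  have hk0 : k ≠ 0 := Nat.cast_ne_zero.2 (by omega)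
  have hωsq : (ω : ℂ) * ω = 1 := by rcases hω1 with rfl | rfl <;> norm_num
  have h2 : (2 : F) ≠ 0 := Ring.two_ne_zero (fun h => by
    have := FiniteField.even_card_iff_char_two.1 h
    obtain ⟨k, hk⟩ := hodd
    omega)
  have hne : (-1 : L) ≠ 1 := fun h => h2 (by
    have h00 := congrFun (congrFun (congrArg Subtype.val h) 0) 0
    simp at h00
    linear_combination -h00)
  have hm1 : (-1 : F) ≠ 1 := fun h => h2 (by linear_combination -h)
  have hX1 : (X : G2 → ℂ) (Matrix.SpecialLinearGroup.toGL (1 : L)) = (q : ℂ) - 1 := by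
    rw [map_one, irr_apply_one, hX, Nat.cast_sub (by omega), Nat.cast_one]
  set C' := Finset.univ.filter (fun c : C => tr (c : L) ^ 2 ≠ 4) with hC'
  have hEC : ∀ c ∈ C', (X : G2 → ℂ) (Matrix.SpecialLinearGroup.toGL (c : L)) = k * (ψ : L → ℂ) c := fun c hc =>
    hE c (Finset.mem_filter.1 hc).2 (hT.elliptic c c.2 (Finset.mem_filter.1 hc).2).1
  -- orthogonality with the trivial character
  have hψ1 : (ψ : L → ℂ) ≠ fun _ => 1 := by
    intro h1
    have hd1 : charDegree (ψ : L → ℂ) = 1 := by rw [h1]; simp [charDegree]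
    rw [hd1, mul_one, hX] at hd
    have : ∀ g : L, (X : G2 → ℂ) (Matrix.SpecialLinearGroup.toGL g) = k := fun g => by
      rw [hY g]; simp [h1, hk]
    rw [funext this, classInner] at hn
    simp only [hk, map_natCast, Finset.sum_const, Finset.card_univ, nsmul_eq_mul] at hn
    rw [← Nat.card_eq_fintype_card, ← mul_assoc, inv_mul_cancel₀ (natCast_card_ne_zero L), one_mul] at hn
    have : Y.card * Y.card = Y.card := by exact_mod_cast hn
    rcases hY12 with c | c <;> rw [c] at this hd <;> omega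
  have hsumψ : ∑ g : L, (ψ : L → ℂ) g = 0 := by
    have h := sum_mul_conj_irr ψ (⟨fun _ => 1, isIrrCharacter_one L⟩ : IrrCharacter L)
    rw [if_neg (fun e => hψ1 (congrArg Subtype.val e))] at h
    simpa using h
  have hsumX : ∑ g : L, (X : G2 → ℂ) (Matrix.SpecialLinearGroup.toGL g) = 0 := by
    simp only [hY]
    rw [Finset.sum_comm]
    refine Finset.sum_eq_zero fun y _ => ?_
    rw [← hsumψ]
    exact Fintype.sum_equiv (cg y).toEquiv _ _ fun g => rfl
  have hclass : IsClassFunction L (fun g => (X : G2 → ℂ) (Matrix.SpecialLinearGroup.toGL g)) := fun g h => by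
    show (X : G2 → ℂ) (Matrix.SpecialLinearGroup.toGL (h * g * h⁻¹)) = _
    rw [map_mul, map_mul, map_inv]
    exact IsCharacter.isClassFunction (isCharacter_irr X) _ _
  have hq1 : (q : ℂ) * ((q : ℂ) - 1) ≠ 0 := mul_ne_zero (Nat.cast_ne_zero.2 (by omega))
    (sub_ne_zero.2 (by exact_mod_cast (show q ≠ 1 by omega)))
  have hS1 : k * ∑ c ∈ C', (ψ : L → ℂ) c = 2 * (1 + (ω : ℂ)) := by
    have h := sum_decomp hodd hT (fun g => (X : G2 → ℂ) (Matrix.SpecialLinearGroup.toGL g)) hclass
      (fun e => if e = 1 then -1 else -(ω : ℂ)) hU hS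
    rw [hsumX, hX1, hz, if_pos rfl, if_neg hm1, Finset.sum_congr rfl hEC, ← Finset.mul_sum, ← hq0] at h
    refine mul_left_cancel₀ hq1 ?_
    linear_combination -h
  have hS2 : k * k * ∑ c ∈ C', (ψ : L → ℂ) c * conj ((ψ : L → ℂ) c) = 2 * k * ((q : ℂ) + 1) - 8 := by
    have hωc : conj (ω : ℂ) = ω := map_intCast _ _
    have h := sum_decomp hodd hT (fun g => (X : G2 → ℂ) (Matrix.SpecialLinearGroup.toGL g) *
      conj ((X : G2 → ℂ) (Matrix.SpecialLinearGroup.toGL g))) (fun g h => by simp only [hclass g h])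
      (fun _ => 1) (fun x e he ht h1 h2 => by
        rw [hU x e he ht h1 h2]; split_ifs <;> simp [hωc, hωsq])
      (fun x hx hs => by rw [hS x hx hs, zero_mul])
    have hL : ∑ g : L, (X : G2 → ℂ) (Matrix.SpecialLinearGroup.toGL g) *
        conj ((X : G2 → ℂ) (Matrix.SpecialLinearGroup.toGL g)) = (Nat.card L : ℂ) * k := by
      rw [← hn, classInner, ← mul_assoc, mul_inv_cancel₀ (natCast_card_ne_zero L), one_mul]
    rw [hL, hX1, hz, card_SL2, Finset.sum_congr rfl (g := fun c : C => k * k * ((ψ : L → ℂ) c * conj ((ψ : L → ℂ) c)))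
      (fun c hc => by simp only [hEC c hc, hk, map_mul, map_natCast]; ring), ← Finset.mul_sum, ← hq0, Nat.cast_mul,
      Nat.cast_sub (Nat.one_le_pow _ _ (by omega)), Nat.cast_pow, Nat.cast_one, map_mul, hωc, map_sub, map_natCast,
      map_one] at h
    refine mul_left_cancel₀ hq1 ?_
    linear_combination -h - 2 * ((q : ℂ) - 1) ^ 2 * hωsq
  -- the auxiliary function on the torus
  let z0 : C := ⟨-1, hT.negOne_mem⟩
  have hz0 : (z0 : L) = -1 := rfl
  have hz1 : z0 ≠ 1 := fun h => hne (congrArg Subtype.val h)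
  have hsplit : ∀ g : C → ℂ, ∑ c : C, g c = g 1 + g z0 + ∑ c ∈ C', g c := fun g => by
    rw [← Finset.sum_filter_not_add_sum_filter Finset.univ (fun c : C => tr (c : L) ^ 2 ≠ 4) g, ← hC']
    congr 1
    rw [← Finset.sum_pair hz1.symm]
    refine Finset.sum_congr ?_ fun _ _ => rfl
    ext c
    simp only [Finset.mem_filter, Finset.mem_univ, true_and, not_not, Finset.mem_insert, Finset.mem_singleton]
    refine ⟨fun h => (hT.special c c.2 h).imp (fun e => Subtype.ext e) (fun e => Subtype.ext e), ?_⟩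
    rintro (rfl | rfl)
    · simp [tr]; norm_num
    · rw [hz0, tr_neg]; simp [tr]; norm_num
  set V : C → ℂ := fun c => if c = 1 then 2 / k else if c = z0 then 2 * (ω : ℂ) / k else -(ψ : L → ℂ) c with hV
  have hV1 : V 1 = 2 / k := by simp [hV]
  have hVz : V z0 = 2 * (ω : ℂ) / k := by simp [hV, hz1]
  have hVC : ∀ c ∈ C', V c = -(ψ : L → ℂ) c := fun c hc => by
    have h4 := (Finset.mem_filter.1 hc).2
    have n1 : c ≠ 1 := fun h => h4 (by rw [h]; simp [tr]; norm_num)
    have n2 : c ≠ z0 := fun h => h4 (by rw [h, hz0, tr_neg]; simp [tr]; norm_num)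
    simp [hV, n1, n2]
  have hcomm : ∀ a b : C, a * b = b * a := fun a b => by
    letI := hC.commGroup
    exact mul_comm a b
  haveI : Finite (IrrCharacter C) := finite_irr C
  choose th hth using fun θ : IrrCharacter C => exists_homIrr θ (CfsgLib.Chars.charDegree_eq_one_of_comm hcomm θ)
  have hthv : ∀ (θ : IrrCharacter C) (c : C), (θ : C → ℂ) c = (th θ c).val := fun θ c => by
    conv_lhs => rw [← hth θ]
    rfl
  have hψC : IsCharacter C (fun c : C => (ψ : L → ℂ) c) := IsCharacter.restrict (isCharacter_irr ψ) C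
  have hint : ∀ θ : IrrCharacter C, ∃ n : ℤ, classInner V (θ : C → ℂ) = (n : ℂ) := by
    intro θ
    obtain ⟨m, hm⟩ := exists_mult hψC θ
    have hcq : (Nat.card C : ℂ) = (q : ℂ) + 1 := by rw [hcard]; push_cast; rfl
    have hqq : (q : ℂ) + 1 ≠ 0 := by exact_mod_cast Nat.succ_ne_zero q
    have hθz : (θ : C → ℂ) z0 = 1 ∨ (θ : C → ℂ) z0 = -1 := by
      rw [hthv]
      refine mul_self_eq_one_iff.1 ?_
      rw [← Units.val_mul, ← map_mul, show z0 * z0 = 1 from Subtype.ext (by show (-1 : L) * -1 = 1; simp), map_one,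
        Units.val_one]
    have hmain : classInner V (θ : C → ℂ) = (1 + (ω : ℂ) * conj ((θ : C → ℂ) z0)) / k - (m : ℂ) := by
      have hdk : k * (charDegree (ψ : L → ℂ) : ℂ) = (q : ℂ) - 1 := by
        rw [hk, ← Nat.cast_mul, ← hd, hX, Nat.cast_sub (by omega), Nat.cast_one]
      rw [← hm, classInner, classInner, hsplit, hsplit, hcq]
      simp only [hV1, hVz, Finset.sum_congr rfl (fun c (hc : c ∈ C') => by rw [hVC c hc] :
        ∀ c ∈ C', V c * conj ((θ : C → ℂ) c) = -(ψ : L → ℂ) c * conj ((θ : C → ℂ) c)), neg_mul,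
        Finset.sum_neg_distrib, OneMemClass.coe_one, hz0, hωd, irr_apply_one]
      rw [CfsgLib.Chars.charDegree_eq_one_of_comm hcomm θ, Nat.cast_one, map_one]
      field_simp
      linear_combination (1 + (ω : ℂ) * conj ((θ : C → ℂ) z0)) * hdk
    rw [hmain]
    obtain ⟨r, hr⟩ : ∃ r : ℤ, (1 + (ω : ℂ) * conj ((θ : C → ℂ) z0)) / k = (r : ℂ) := by
      rw [hk]
      rcases hY12 with c | c <;> rw [c] <;> rcases hθz with h | h <;> rw [h] <;> rcases hω1 with rfl | rfl
      all_goals first
        | (refine ⟨2, ?_⟩; simp <;> norm_num; done)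
        | (refine ⟨1, ?_⟩; simp <;> norm_num; done)
        | (refine ⟨0, ?_⟩; simp <;> norm_num; done)
    exact ⟨r - m, by rw [hr]; push_cast; rfl⟩
  choose n hn' using hint
  have hexp : ∀ c : C, V c = ∑ θ : IrrCharacter C, (n θ : ℂ) * (θ : C → ℂ) c := fun c => by
    have hcf : IsClassFunction C V := fun a b => by rw [hcomm b a, mul_inv_cancel_right]
    rw [classFunction_expand hcf c]
    simp only [hn']
  have hcq : (Nat.card C : ℂ) = (q : ℂ) + 1 := by rw [hcard]; push_cast; rfl
  have hqq : (q : ℂ) + 1 ≠ 0 := by exact_mod_cast Nat.succ_ne_zero q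
  have hpars : ∑ θ : IrrCharacter C, (n θ : ℂ) * n θ = 2 / k := by
    have h1 : classInner V V = ∑ θ : IrrCharacter C, (n θ : ℂ) * classInner (θ : C → ℂ) V := by
      conv_lhs => arg 1; rw [funext hexp]
      exact classInner_sum _ _ _ _
    have h2 : ∀ θ : IrrCharacter C, classInner (θ : C → ℂ) V = (n θ : ℂ) := fun θ => by
      rw [classInner_symm, hn', map_intCast]
    simp only [h2] at h1
    rw [← h1, classInner, hsplit, hcq, hV1, hVz,
      Finset.sum_congr rfl (g := fun c : C => (ψ : L → ℂ) c * conj ((ψ : L → ℂ) c))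
        (fun c hc => by simp [hVC c hc])]
    simp only [hk, map_div₀, map_mul, map_ofNat, map_natCast, map_intCast]
    rw [← hk]
    field_simp
    linear_combination hS2 + 4 * hωsq
  have hone : ∑ θ : IrrCharacter C, (n θ : ℂ) = 2 / k := by
    rw [← hV1, hexp 1]
    refine Finset.sum_congr rfl fun θ _ => ?_
    rw [hthv, map_one, Units.val_one, mul_one]
  have htriv : ∀ θ : IrrCharacter C, (θ : C → ℂ) = (fun _ => 1) → n θ = 0 := by
    intro θ hθ
    have h : classInner V (θ : C → ℂ) = 0 := by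
      rw [hθ, classInner, hsplit]
      simp only [map_one, mul_one, hV1, hVz]
      rw [Finset.sum_congr rfl (fun c hc => hVC c hc), Finset.sum_neg_distrib, mul_eq_zero]
      right
      field_simp
      linear_combination -hS1
    rw [hn'] at h
    exact_mod_cast h
  have hVinv : ∀ c : C, V c⁻¹ = V c := by
    intro c
    have e2 : z0⁻¹ = z0 := inv_eq_of_mul_eq_one_right (Subtype.ext (by show (-1 : L) * -1 = 1; simp))
    by_cases h1 : c = 1
    · rw [h1, inv_one]
    by_cases h2 : c = z0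
    · rw [h2, e2]
    have h4 : tr (c : L) ^ 2 ≠ 4 := fun h => by
      rcases hT.special c c.2 h with e | e
      · exact h1 (Subtype.ext e)
      · exact h2 (Subtype.ext e)
    have h4' : tr ((c⁻¹ : C) : L) ^ 2 ≠ 4 := by rw [Subgroup.coe_inv, tr_inv]; exact h4
    rw [hVC c (Finset.mem_filter.2 ⟨Finset.mem_univ _, h4⟩), hVC c⁻¹ (Finset.mem_filter.2 ⟨Finset.mem_univ _, h4'⟩)]
    congr 1
    obtain ⟨P, hP⟩ := isConj_iff.1 (isConj_of_tr h4 (tr_inv (c : L)).symm)
    rw [Subgroup.coe_inv, ← hP]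
    exact IsCharacter.isClassFunction (isCharacter_irr ψ) _ P
  have hconj : ∀ θ : IrrCharacter C, n ⟨_, isIrrCharacter_conj θ⟩ = n θ := by
    intro θ
    have h : classInner V (fun c => conj ((θ : C → ℂ) c)) = classInner V (θ : C → ℂ) := by
      simp only [classInner]
      congr 1
      refine Fintype.sum_equiv (Equiv.inv C) _ _ fun c => ?_
      show _ = V c⁻¹ * conj ((θ : C → ℂ) c⁻¹)
      rw [hVinv, IsCharacter.map_inv (isCharacter_irr θ)]
    have h2 := hn' ⟨_, isIrrCharacter_conj θ⟩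
    dsimp only at h2
    rw [h, hn'] at h2
    exact_mod_cast h2.symm
  -- the coefficients are zero or one
  have h01 : ∀ θ : IrrCharacter C, n θ = 0 ∨ n θ = 1 := by
    have hz : ∑ θ : IrrCharacter C, (n θ * n θ - n θ) = 0 := by
      have : ((∑ θ : IrrCharacter C, (n θ * n θ - n θ) : ℤ) : ℂ) = 0 := by
        push_cast
        rw [Finset.sum_sub_distrib, hpars, hone, sub_self]
      exact_mod_cast this
    intro θ
    have := (Finset.sum_eq_zero_iff_of_nonneg (fun θ _ => by
      rcases le_or_gt (n θ) 0 with h | h <;> nlinarith)).1 hz θ (Finset.mem_univ _)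
    rcases mul_eq_zero.1 (show n θ * (n θ - 1) = 0 by linear_combination this) with h | h
    · exact Or.inl h
    · exact Or.inr (by omega)
  set S := Finset.univ.filter fun θ : IrrCharacter C => n θ = 1 with hS'
  have hSc : (S.card : ℂ) = 2 / k := by
    rw [← hone, hS', Finset.card_filter, Nat.cast_sum]
    refine Finset.sum_congr rfl fun θ _ => ?_
    rcases h01 θ with h | h <;> rw [h] <;> simp
  have hVS : ∀ c : C, V c = ∑ θ ∈ S, (th θ c).val := fun c => by
    rw [hexp c, hS', Finset.sum_filter]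
    refine Finset.sum_congr rfl fun θ _ => ?_
    rw [hthv]
    rcases h01 θ with h | h <;> rw [h] <;> simp
  have hnt : ∀ θ ∈ S, ∃ c : C, th θ c ≠ 1 := by
    intro θ hθ
    by_contra hc
    push Not at hc
    have := htriv θ (funext fun c => by rw [hthv, hc c, Units.val_one])
    rw [(Finset.mem_filter.1 hθ).2] at this
    norm_num at this
  have hconjv : ∀ (θ : IrrCharacter C) (c : C),
      (th ⟨_, isIrrCharacter_conj θ⟩ c).val = (th θ c)⁻¹.val := fun θ c => by
    rw [← hthv]
    show conj ((θ : C → ℂ) c) = _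
    rw [← IsCharacter.map_inv (isCharacter_irr θ), hthv, map_inv]
  have hconjS : ∀ θ ∈ S, (⟨_, isIrrCharacter_conj θ⟩ : IrrCharacter C) ∈ S := fun θ hθ => by
    refine Finset.mem_filter.2 ⟨Finset.mem_univ _, ?_⟩
    rw [hconj]; exact (Finset.mem_filter.1 hθ).2
  have hcenter : ∀ a : C →* ℂˣ, (ω : ℂ) = (a z0).val → ∀ c : C, (c : L) = -1 → ∀ g : L,
      (ψ : L → ℂ) ((c : L) * g) = (a c).val * (ψ : L → ℂ) g := fun a ha c hc g => by
    have : c = z0 := Subtype.ext hc
    subst this
    rw [hz0, hω, ha]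
  rcases hY12 with h1 | h2'
  · have hc2 : S.card = 2 := by
      have : (S.card : ℂ) = 2 := by rw [hSc, hk, h1]; norm_num
      exact_mod_cast this
    obtain ⟨a, b, hab, hSab⟩ := Finset.card_eq_two.1 hc2
    have haS : a ∈ S := by rw [hSab]; simp
    have hbS : b ∈ S := by rw [hSab]; simp
    have hba : (⟨_, isIrrCharacter_conj a⟩ : IrrCharacter C) = b := by
      have hm := hconjS a haS
      rw [hSab, Finset.mem_insert, Finset.mem_singleton] at hm
      refine hm.resolve_left fun e => ?_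
      have hm' := hconjS b hbS
      rw [hSab, Finset.mem_insert, Finset.mem_singleton] at hm'
      rcases hm' with e' | e'
      · apply hab
        refine Subtype.ext (funext fun c => ?_)
        have h1 := congrFun (congrArg Subtype.val e') c
        have h2 := congrFun (congrArg Subtype.val e) c
        dsimp only at h1 h2
        rw [← h2, ← h1, Complex.conj_conj]
      obtain ⟨g₀, hg₀⟩ := hC.exists_generator
      have key : ∀ θ ∈ S, (⟨_, isIrrCharacter_conj θ⟩ : IrrCharacter C) = θ → (th θ g₀).val = -1 := by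
        intro θ hθ he
        have h2 := hconjv θ g₀
        rw [he] at h2
        have hsq : th θ g₀ * th θ g₀ = 1 := by
          have := Units.ext h2
          conv_lhs => arg 1; rw [this]
          exact inv_mul_cancel _
        have hsq' : (th θ g₀).val * (th θ g₀).val = 1 := by rw [← Units.val_mul, hsq, Units.val_one]
        refine (mul_self_eq_one_iff.1 hsq').resolve_left fun h1 => ?_
        obtain ⟨c, hc⟩ := hnt θ hθ
        obtain ⟨j, rfl⟩ := Subgroup.mem_zpowers_iff.1 (hg₀ c)
        exact hc (by rw [map_zpow, Units.ext (h1.trans Units.val_one.symm), _root_.one_zpow])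
      apply hab
      have hg := (key a haS e).trans (key b hbS e').symm
      refine Subtype.ext (funext fun c => ?_)
      obtain ⟨j, rfl⟩ := Subgroup.mem_zpowers_iff.1 (hg₀ c)
      rw [hthv, hthv, map_zpow, map_zpow, Units.ext hg]
    have hV2 : ∀ c : C, V c = (th a c).val + (th a c)⁻¹.val := fun c => by
      rw [hVS c, hSab, Finset.sum_pair hab, ← hba, hconjv]
    refine ⟨th a, hnt a haS, fun c hc => ?_, hcenter _ ?_, Or.inl ⟨h1, ?_⟩⟩
    · have := (hV2 c).symm.trans (hVC c (Finset.mem_filter.2 ⟨Finset.mem_univ _, hc⟩))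
      rw [hk, h1, Nat.cast_one, one_mul]
      linear_combination this
    · have h := hV2 z0
      rw [hVz, hk, h1, Nat.cast_one, div_one] at h
      have e : (th a z0)⁻¹ = th a z0 := by
        rw [← map_inv]
        congr 1
        exact inv_eq_of_mul_eq_one_right (Subtype.ext (by show (-1 : L) * -1 = 1; simp))
      rw [e] at h
      linear_combination h / 2
    · by_contra hc
      push Not at hc
      refine hab (Eq.trans ?_ hba)
      refine Subtype.ext (funext fun c => ?_)
      show (a : C → ℂ) c = conj ((a : C → ℂ) c)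
      rw [← IsCharacter.map_inv (isCharacter_irr a), hthv, hthv, map_inv]
      congr 1
      exact eq_inv_of_mul_eq_one_left (by rw [← pow_two]; exact hc c)
  · have hc1 : S.card = 1 := by
      have : (S.card : ℂ) = 1 := by rw [hSc, hk, h2']; norm_num
      exact_mod_cast this
    obtain ⟨a, hSa⟩ := Finset.card_eq_one.1 hc1
    have haS : a ∈ S := by rw [hSa]; simp
    have hself : (⟨_, isIrrCharacter_conj a⟩ : IrrCharacter C) = a := by
      have hm := hconjS a haS
      rwa [hSa, Finset.mem_singleton] at hm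
    have hsq : ∀ c : C, th a c ^ 2 = 1 := fun c => by
      have h := hconjv a c
      rw [hself] at h
      have := Units.ext h
      rw [pow_two]
      conv_lhs => arg 1; rw [this]
      exact inv_mul_cancel _
    have hV2 : ∀ c : C, V c = (th a c).val := fun c => by rw [hVS c, hSa, Finset.sum_singleton]
    refine ⟨th a, hnt a haS, fun c hc => ?_, hcenter _ ?_, Or.inr ⟨h2', hsq⟩⟩
    · have h := (hV2 c).symm.trans (hVC c (Finset.mem_filter.2 ⟨Finset.mem_univ _, hc⟩))
      have e : (th a c)⁻¹ = th a c := inv_eq_of_mul_eq_one_right (by rw [← pow_two]; exact hsq c)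
      rw [hk, h2', e]
      push_cast
      linear_combination 2 * h
    · have h := hV2 z0
      rw [hVz, hk, h2'] at h
      push_cast at h
      linear_combination h

end CfsgLib.SL2Borel
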